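import Cfsg.Agent.H2.KpSpec

/-! Tower KP (S4202), slot GEOB. -/

set_option autoImplicit false

open Equiv MulAction H2.Ln H2.Kp

namespace H93.Kp

variable {α : Type} [Fintype α] [DecidableEq α]

theorem parts {M K : Subgroup (Perm α)} {Ω : Finset α} {l : ℕ} {L : α → α → Finset α}
    (h : Lines M Ω l L) (hK : K ≤ M) (hS : sp K ⊆ Ω)
    (hF : ∀ u ∈ Ω \ sp K, ∀ v ∈ Ω \ sp K, u ≠ v → Disjoint (L u v) (sp K))
    {e : α} (he : e ∈ Ω \ sp K) :
    ∃ (c : ℕ) (B : Fin c → Finset α), (sp K).card = (l - 1) * c ∧ Part B (l - 1) ∧ Pres K B ∧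
      (∀ a, a ∈ sp K ↔ ∃ i, a ∈ B i) ∧ ∀ i, ∃ z ∈ sp K, B i = (L e z).erase e := by
  have heΩ := (Finset.mem_sdiff.1 he).1
  have heS := (Finset.mem_sdiff.1 he).2
  have hne : ∀ z ∈ sp K, e ≠ z := fun z hz k => heS (k ▸ hz)
  have hm := fun z hz => h.mem e heΩ z (hS hz) (hne z hz)
  have hu : ∀ z ∈ sp K, ∀ w ∈ (L e z).erase e, L e w = L e z := fun z hz w hw =>
    h.uniq e heΩ z (hS hz) (hne z hz) e (hm z hz).1 w (Finset.mem_erase.1 hw).2
      (Finset.mem_erase.1 hw).1.symm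
  have hin : ∀ z ∈ sp K, ∀ w ∈ (L e z).erase e, w ∈ sp K := fun z hz w hw => by
    by_contra hc
    have := hF e he w (Finset.mem_sdiff.2 ⟨(hm z hz).2.2.1 (Finset.mem_erase.1 hw).2, hc⟩)
      (Finset.mem_erase.1 hw).1.symm
    rw [hu z hz w hw] at this
    exact Finset.disjoint_left.1 this (hm z hz).2.1 hz
  let T : Finset (Finset α) := (sp K).image fun z => (L e z).erase e
  let B : Fin T.card → Finset α := fun i => (T.equivFin.symm i).1
  have hB : ∀ i, ∃ z ∈ sp K, B i = (L e z).erase e := fun i => by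
    obtain ⟨z, hz, k⟩ := Finset.mem_image.1 (T.equivFin.symm i).2
    exact ⟨z, hz, k.symm⟩
  have hB' : ∀ z ∈ sp K, ∃ i, B i = (L e z).erase e := fun z hz =>
    ⟨T.equivFin ⟨_, Finset.mem_image_of_mem _ hz⟩, by simp [B]⟩
  have hP : Part B (l - 1) := by
    refine ⟨fun i => ?_, fun i j hij => Finset.disjoint_left.2 fun w hi hj => hij ?_⟩
    · obtain ⟨z, hz, k⟩ := hB i
      rw [k, Finset.card_erase_of_mem (hm z hz).1, (hm z hz).2.2.2]
    · obtain ⟨z, hz, k⟩ := hB i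
      obtain ⟨z', hz', k'⟩ := hB j
      refine T.equivFin.symm.injective (Subtype.ext ?_)
      change B i = B j
      rw [k, k', ← hu z hz w (k ▸ hi), ← hu z' hz' w (k' ▸ hj)]
  have hC : ∀ a, a ∈ sp K ↔ ∃ i, a ∈ B i := fun a => ⟨fun ha => by
      obtain ⟨i, k⟩ := hB' a ha
      exact ⟨i, k ▸ Finset.mem_erase.2 ⟨(hne a ha).symm, (hm a ha).2.1⟩⟩,
    fun ⟨i, hi⟩ => by
      obtain ⟨z, hz, k⟩ := hB i
      exact hin z hz a (k ▸ hi)⟩
  refine ⟨T.card, B, ?_, hP, fun x hx i => ?_, hC, hB⟩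
  · have e1 : sp K = Finset.univ.biUnion B := by
      ext a
      simp [hC]
    rw [e1, Finset.card_biUnion fun i _ j _ hij => hP.2 i j hij,
      Finset.sum_congr rfl fun i _ => hP.1 i]
    simp [mul_comm]
  · obtain ⟨z, hz, k⟩ := hB i
    have hxe : x e = e := by
      by_contra hc
      exact heS (mem_sp.2 ⟨x, hx, hc⟩)
    have hxz : x z ∈ sp K := by
      by_cases hc : x z = z
      · rwa [hc]
      · exact mem_sp.2 ⟨x, hx, fun k => hc (x.injective k)⟩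
    obtain ⟨j, k'⟩ := hB' _ hxz
    refine ⟨j, fun w hw => ?_⟩
    rw [k, Finset.mem_erase] at hw
    rw [k', Finset.mem_erase]
    refine ⟨fun c => hw.1 (x.injective (c.trans hxe.symm)), ?_⟩
    have := h.eqv x (hK hx) e heΩ z (hS hz) (hne z hz) w hw.2
    rwa [hxe] at this

theorem jobGeoB : GeoB := by
  intro α _ _ M Ω l N L a b h hΩ ha hb hab hD K hK hK1 hT
  have hKM : K ≤ M := fun x hx => (mem_fx.1 (hK hx)).1
  have hF := hD K hKM hK1 hT
  have hS : sp K ⊆ Ω := fun z hz => by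
    by_contra hc
    obtain ⟨x, hx, k⟩ := mem_sp.1 hz
    exact k (h.inv x (hKM hx) z hc)
  have hfix : ∀ e ∈ ({a, b} : Finset α), e ∉ sp K := fun e he hz => by
    obtain ⟨x, hx, k⟩ := mem_sp.1 hz
    exact k ((mem_fx.1 (hK hx)).2 e he)
  have haF : a ∈ Ω \ sp K := Finset.mem_sdiff.2 ⟨ha, hfix a (by simp)⟩
  have hbF : b ∈ Ω \ sp K := Finset.mem_sdiff.2 ⟨hb, hfix b (by simp)⟩
  have hcard : (Ω \ sp K).card = N + 2 - (sp K).card := by
    rw [Finset.card_sdiff_of_subset hS, hΩ]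
  have hle := Finset.card_le_card hS
  have h3 := h.three
  have hl : l ≤ (Ω \ sp K).card := by
    rw [← (h.mem a ha b hb hab).2.2.2]
    exact Finset.card_le_card (Finset.subset_sdiff.2 ⟨(h.mem a ha b hb hab).2.2.1,
      hF a haF b hbF hab⟩)
  obtain ⟨z, hz⟩ : ∃ z, z ∈ sp K := by
    obtain ⟨⟨x, hx⟩, k⟩ := Subgroup.ne_bot_iff_exists_ne_one.1 hK1
    by_contra hc
    refine k (Subtype.ext (Equiv.ext fun z => ?_))
    by_contra hc'
    exact hc ⟨z, mem_sp.2 ⟨x, hx, hc'⟩⟩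
  have hcount : (Ω \ sp K).card * (l - 1) ≤ N + 1 := by
    have hne : ∀ u ∈ Ω \ sp K, z ≠ u := fun u hu k => (Finset.mem_sdiff.1 hu).2 (k ▸ hz)
    have hm := fun u hu => h.mem z (hS hz) u (Finset.mem_sdiff.1 hu).1 (hne u hu)
    have hu : ∀ u ∈ Ω \ sp K, ∀ w ∈ (L z u).erase z, L z w = L z u := fun u hu w hw =>
      h.uniq z (hS hz) u (Finset.mem_sdiff.1 hu).1 (hne u hu) z (hm u hu).1 w
        (Finset.mem_erase.1 hw).2 (Finset.mem_erase.1 hw).1.symm
    have e1 : ((Ω \ sp K).biUnion fun u => (L z u).erase z).card = (Ω \ sp K).card * (l - 1) := by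
      rw [Finset.card_biUnion, Finset.sum_congr rfl fun u hu' => by
        rw [Finset.card_erase_of_mem (hm u hu').1, (hm u hu').2.2.2]]
      · simp
      · intro u hu1 v hv1 huv
        refine Finset.disjoint_left.2 fun w hw hw' => ?_
        have e2 : L z u = L z v := (hu u hu1 w hw).symm.trans (hu v hv1 w hw')
        have e3 : L u v = L z u := h.uniq z (hS hz) u (Finset.mem_sdiff.1 hu1).1 (hne u hu1) u
          (hm u hu1).2.1 v (e2 ▸ (hm v hv1).2.1) huv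
        exact Finset.disjoint_left.1 (hF u hu1 v hv1 huv) (e3 ▸ (hm u hu1).1) hz
    have e2 : ((Ω \ sp K).biUnion fun u => (L z u).erase z) ⊆ Ω.erase z :=
      Finset.biUnion_subset.2 fun u hu' => Finset.erase_subset_erase z (hm u hu').2.2.1
    have := Finset.card_le_card e2
    rw [e1, Finset.card_erase_of_mem (hS hz), hΩ] at this
    omega
  refine ⟨by omega, ⟨h3, by omega, hcard ▸ hcount⟩, ?_⟩
  obtain ⟨c, B, e1, p1, q1, r1, s1⟩ := parts h hKM hS hF haF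
  obtain ⟨c', B', e2, p2, q2, r2, s2⟩ := parts h hKM hS hF hbF
  obtain rfl : c = c' := Nat.eq_of_mul_eq_mul_left (by omega : 0 < l - 1) (e1.symm.trans e2)
  refine ⟨c, B, B', e1, p1, p2, q1, q2, r1, r2, fun i j => Finset.card_le_one.2 fun u hu v hv => ?_⟩
  by_contra huv
  obtain ⟨y, hy, k⟩ := s1 i
  obtain ⟨y', hy', k'⟩ := s2 j
  rw [k, k', Finset.mem_inter, Finset.mem_erase, Finset.mem_erase] at hu hv
  have n1 : a ≠ y := fun e => hfix a (by simp) (e ▸ hy)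
  have n2 : b ≠ y' := fun e => hfix b (by simp) (e ▸ hy')
  have e3 := h.uniq a ha y (hS hy) n1 u hu.1.2 v hv.1.2 huv
  have e4 := h.uniq b hb y' (hS hy') n2 u hu.2.2 v hv.2.2 huv
  have e5 := h.uniq a ha y (hS hy) n1 a (h.mem a ha y (hS hy) n1).1 b
    (e3 ▸ e4 ▸ (h.mem b hb y' (hS hy') n2).1) hab
  exact Finset.disjoint_left.1 (hF a haF b hbF hab) (e5 ▸ (h.mem a ha y (hS hy) n1).2.1) hy

end H93.Kp
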