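/- A Lie algebra of matrices (job SG-M0 of blueprints/C3C6.md). -/
import Cfsg.Agent.H53.SGSpec

set_option autoImplicit false

namespace H93.SG
open Matrix

universe v

variable {K : Type v} [Field K] {ι : Type} [Fintype ι] [DecidableEq ι]

theorem single_mem {L : Submodule K (Matrix ι ι K)} {θ : ι → K}
    (hb : ∀ A ∈ L, ∀ B ∈ L, A * B - B * A ∈ L) (hd : ∀ a, single a a 1 ∈ L) (h0 : ∀ a, θ a ≠ 0)
    (h2 : ∀ a b, θ a ^ 2 = θ b ^ 2 → a = b)
    (hc : ∀ A ∈ L, diagonal θ * A * diagonal (fun a => (θ a)⁻¹) ∈ L) {X : Matrix ι ι K} (hX : X ∈ L)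
    {a c : ι} (h : X a c ≠ 0) : single a c (1 : K) ∈ L := by
  by_cases hac : a = c
  · exact hac ▸ hd a
  have h1 := hb _ (hb _ (hd a) _ hX) _ (hd c)
  have e1 : (single a a 1 * X - X * single a a 1) * single c c 1 -
      single c c 1 * (single a a 1 * X - X * single a a 1) =
      single a c (X a c) + single c a (X c a) := by
    rw [sub_mul, mul_sub, mul_assoc X, single_mul_single_of_ne _ _ _ _ hac, ← mul_assoc,
      single_mul_single_of_ne _ _ _ _ (Ne.symm hac), ← mul_assoc, single_mul_mul_single,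
      single_mul_mul_single]
    simp
  rw [e1] at h1
  have h3 := L.sub_mem (hc _ h1) (L.smul_mem (θ c * (θ a)⁻¹) h1)
  have e2 : diagonal θ * (single a c (X a c) + single c a (X c a)) * diagonal (fun a => (θ a)⁻¹) -
      (θ c * (θ a)⁻¹) • (single a c (X a c) + single c a (X c a)) =
      (X a c * (θ a * (θ c)⁻¹ - θ c * (θ a)⁻¹)) • single a c (1 : K) := by
    ext i j
    simp only [Matrix.sub_apply, mul_diagonal, diagonal_mul, Matrix.add_apply, Matrix.smul_apply,
      single_apply,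
      smul_eq_mul]
    by_cases h4 : a = i ∧ c = j
    · obtain ⟨rfl, rfl⟩ := h4
      simp [hac]; ring
    · by_cases h5 : c = i ∧ a = j
      · obtain ⟨rfl, rfl⟩ := h5
        simp [hac]; ring
      · simp [h4, h5]
  rw [e2] at h3
  refine (L.smul_mem_iff (mul_ne_zero h fun e => hac (h2 a c ?_))).1 h3
  have := h0 a
  have := h0 c
  field_simp at e
  linear_combination e

theorem jobM0 : H53.SG.JobM0.{v} := by
  intro K _ ι _ _ π L θ P P' M M' hp ht hb hd h0 h2 hc hP hP1 hP2 hM ⟨b, a₁, a₂, ha, h1, h1'⟩ hM2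
  have key := fun X hX a c => single_mem hb hd h0 h2 hc (X := X) hX (a := a) (c := c)
  have ent : ∀ (A B : Matrix ι ι K) (a c x y : ι),
      (A * single a c (1 : K) * B : Matrix ι ι K) x y = A x a * B c y := by
    intro A B a c x y
    rw [mul_apply, Finset.sum_eq_single c (fun j _ hj => by
      rw [mul_single_apply_of_ne _ _ _ _ _ hj, zero_mul]) (by simp), mul_single_apply_same, mul_one]
  obtain ⟨c, hc'⟩ : ∃ c, M' b c ≠ 0 := by
    by_contra hn
    push Not at hn
    have : (M' * M) b b = (1 : Matrix ι ι K) b b := by rw [mul_eq_one_comm.1 hM]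
    simp [mul_apply, hn] at this
  obtain ⟨a, hac, ha'⟩ : ∃ a, a ≠ c ∧ M a b ≠ 0 := by
    by_cases e : a₁ = c
    exacts [⟨a₂, e ▸ ha.symm, h1'⟩, ⟨a₁, e, h1⟩]
  have r0 : single a c (1 : K) ∈ L := key _ (hM2 _ (hd b)) a c (by rw [ent]; exact mul_ne_zero ha' hc')
  have rπ : ∀ x y, single x y (1 : K) ∈ L → single (π x) (π y) (1 : K) ∈ L := fun x y h => by
    refine key _ (hP2 _ h) _ _ ?_
    rw [ent]
    refine mul_ne_zero ((hP1 _ _).2 rfl) fun e => ?_
    have := congrFun (congrFun hP (π y)) (π y)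
    rw [mul_apply, Finset.sum_eq_single y (fun j _ hj => by
      rw [not_not.1 (mt (hP1 _ _).1 fun e => hj (π.injective e).symm), zero_mul]) (by simp), e] at this
    simp at this
  have rp : ∀ (n : ℕ) x y, single x y (1 : K) ∈ L → single ((π ^ n) x) ((π ^ n) y) (1 : K) ∈ L := by
    intro n x y h
    induction n with
    | zero => exact h
    | succ n ih => rw [pow_succ']; exact rπ _ _ ih
  have tr : ∀ x y z, single x y (1 : K) ∈ L → single y z (1 : K) ∈ L → single x z (1 : K) ∈ L := by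
    intro x y z h h'
    by_cases e : z = x
    · exact e ▸ hd z
    · simpa [single_mul_single_of_ne _ _ _ _ e] using hb _ h _ h'
  obtain ⟨k, rfl⟩ := ht a c
  have s1 : ∀ x, single x ((π ^ k) x) (1 : K) ∈ L := fun x => by
    obtain ⟨j, rfl⟩ := ht a x
    have := rp j _ _ r0
    rwa [← Equiv.Perm.mul_apply, ← pow_add, add_comm, pow_add, Equiv.Perm.mul_apply] at this
  have s2 : ∀ (n : ℕ) x, single x (((π ^ k) ^ n) x) (1 : K) ∈ L := fun n x => by
    induction n with
    | zero => exact hd x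
    | succ n ih => rw [pow_succ']; exact tr _ _ _ ih (s1 _)
  have nf : ∀ x, π x ≠ x := fun x e => by
    obtain ⟨y, hy⟩ := Fintype.exists_ne_of_one_lt_card hp.one_lt x
    obtain ⟨j, rfl⟩ := ht x y
    exact hy (Equiv.Perm.pow_apply_eq_self_of_apply_eq_self e j)
  have cyc : π.IsCycle := ⟨a, nf a, fun y _ => by
    obtain ⟨j, hj⟩ := ht a y
    exact ⟨j, by simpa using hj⟩⟩
  have ho : orderOf π = Fintype.card ι := by
    rw [cyc.orderOf, ← Finset.card_univ]
    congr 1
    exact Finset.eq_univ_of_forall fun x => Equiv.Perm.mem_support.2 (nf x)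
  obtain ⟨m, hm⟩ := exists_pow_eq_self_of_coprime (x := π) (n := k) (by
    rw [ho, Nat.coprime_comm, hp.coprime_iff_not_dvd, ← ho, orderOf_dvd_iff_pow_eq_one]
    exact fun e => hac (by rw [e]; rfl))
  refine eq_top_iff.2 fun A _ => ?_
  rw [matrix_eq_sum_single A]
  refine L.sum_mem fun x _ => L.sum_mem fun y _ => ?_
  obtain ⟨j, rfl⟩ := ht x y
  have := L.smul_mem (A x ((π ^ j) x)) (s2 (m * j) x)
  rwa [pow_mul, hm, smul_single, smul_eq_mul, mul_one] at this

end H93.SG
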